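import Cfsg.Agent.U3.Main
import Cfsg.Agent.HForm.USpec
import Cfsg.Agent.SymAlt.Carmichael

/-! The alternating group `A₇` inside `PSU₃(5)`. -/

set_option autoImplicit false

open Matrix Subgroup Equiv

namespace Cfsg.Agent.U3

open Cfsg Cfsg.Agent.SymAlt Cfsg.Agent.Forms Cfsg.Agent.Polar

theorem exists_card_2520 {Q : Type*} [Group Q] (y : Fin 7 → Q) (h3 : ∀ i, 2 ≤ i → y i ^ 3 = 1)
    (h2 : ∀ i, 2 ≤ i → ∀ j, 2 ≤ j → i ≠ j → (y i * y j) ^ 2 = 1) (h1 : y 2 ≠ 1) :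
    ∃ H : Subgroup Q, Nat.card H = 2520 := by
  let x : Fin 7 → Perm (Fin 7) × Q := fun i => (c3 0 1 i, y i)
  let S : Set (Fin 7) := {i | 2 ≤ i}
  have hS : ∀ i ∈ S, i ≠ 0 ∧ i ≠ 1 := by decide
  let K := closure (x '' S)
  let e : K →* alternatingGroup (Fin 7) := ((MonoidHom.fst _ _).comp K.subtype).codRestrict _
    fun g => Perm.mem_alternatingGroup.2 (carm_sign (MonoidHom.fst _ _) (u := 0) (v := 1)
      (by decide) x S (by decide) (fun _ _ => rfl) g.2)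
  have he : Function.Bijective e := by
    refine ⟨(injective_iff_map_eq_one e).2 fun g hg => Subtype.ext (carmichael (MonoidHom.fst _ _)
      (u := 0) (v := 1) (by decide) x S (Set.toFinite _) (by decide) (by decide) (fun _ _ => rfl)
      (fun i hi => Prod.ext (c3_cube (by decide) (hS i hi).1 (hS i hi).2) (h3 i hi))
      (fun i hi j hj hij => Prod.ext (c3_mul_sq (by decide) (hS i hi).1 (hS i hi).2 (hS j hj).1
        (hS j hj).2 hij) (h2 i hi j hj hij)) g.2 (congrArg Subtype.val hg)), fun s => ?_⟩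
    obtain ⟨g, hg, h⟩ := carm_surj (MonoidHom.fst _ _) (u := 0) (v := 1) (by decide) x S
      (fun _ _ => rfl) s (Perm.mem_alternatingGroup.1 s.2) (fun z h0 h1 h2 => absurd (by revert z; decide) h2)
    exact ⟨⟨g, hg⟩, Subtype.ext h⟩
  have : IsSimpleGroup (alternatingGroup (Fin 7)) := alternatingGroup.isSimpleGroup (by simp)
  have : IsSimpleGroup K := (MulEquiv.ofBijective e he).isSimpleGroup
  let f : K →* Q := (MonoidHom.snd _ _).comp K.subtype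
  have hf : Function.Injective f := (MonoidHom.ker_eq_bot_iff f).1
    ((f.normal_ker.eq_bot_or_eq_top).resolve_right fun h =>
      h1 (show (⟨x 2, subset_closure ⟨2, by decide, rfl⟩⟩ : K) ∈ f.ker from h ▸ mem_top _))
  refine ⟨f.range, ?_⟩
  have h4 := two_mul_nat_card_alternatingGroup (α := Fin 7)
  rw [Nat.card_perm, Nat.card_fin] at h4
  rw [← Nat.card_congr (MonoidHom.ofInjective hf).toEquiv, Nat.card_congr (Equiv.ofBijective e he)]
  exact Nat.eq_of_mul_eq_mul_left two_pos h4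

/-- The field with 25 elements. -/
abbrev K25 : Type := QuadraticAlgebra (ZMod 5) 2 0

/-- Generators of the triple cover of `A₇`. -/
def xs : Fin 7 → Matrix (Fin 3) (Fin 3) K25 :=
  ![1, (⟨2, 2⟩ : K25) • 1,
    !![⟨0, 0⟩, ⟨0, 0⟩, ⟨1, 0⟩; ⟨1, 0⟩, ⟨0, 0⟩, ⟨0, 0⟩; ⟨0, 0⟩, ⟨1, 0⟩, ⟨0, 0⟩],
    !![⟨0, 0⟩, ⟨4, 0⟩, ⟨0, 0⟩; ⟨0, 0⟩, ⟨0, 0⟩, ⟨4, 0⟩; ⟨1, 0⟩, ⟨0, 0⟩, ⟨0, 0⟩],
    !![⟨4, 0⟩, ⟨1, 0⟩, ⟨2, 0⟩; ⟨4, 0⟩, ⟨2, 0⟩, ⟨1, 0⟩; ⟨2, 0⟩, ⟨4, 0⟩, ⟨4, 0⟩],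
    !![⟨4, 0⟩, ⟨2, 2⟩, ⟨4, 1⟩; ⟨3, 2⟩, ⟨2, 0⟩, ⟨2, 2⟩; ⟨4, 4⟩, ⟨3, 2⟩, ⟨4, 0⟩],
    !![⟨4, 0⟩, ⟨2, 3⟩, ⟨4, 4⟩; ⟨3, 3⟩, ⟨2, 0⟩, ⟨2, 3⟩; ⟨4, 1⟩, ⟨3, 3⟩, ⟨4, 0⟩]]

theorem xs_det : ∀ i, (xs i).det = 1 := fun i => by
  rw [det_fin_three]; revert i; decide +kernel

theorem xs_unit : ∀ i, (xs i)ᵀ * (xs i).map (· ^ 5) = 1 := by decide +kernel

theorem xs_cube : ∀ i, xs i * xs i * xs i = 1 := by decide +kernel

theorem xs_sq : ∀ i, 2 ≤ i → ∀ j, 2 ≤ j → i ≠ j → xs i * xs j * (xs i * xs j) =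
    (xs i * xs j * (xs i * xs j)) 0 0 • 1 := by decide +kernel

theorem exists_index_fifty {F : Type*} [Field F] [Fintype F] (hF : Fintype.card F = 5 ^ 2) :
    ∃ H : Subgroup (PSU 3 F 5), H.index = 50 := by
  have h5 : (5 : F) = 0 := by exact_mod_cast cast_q hF
  have h2 : (2 : F) ≠ 0 := fun h => one_ne_zero (α := F) (by linear_combination h5 - 2 * h)
  have : CharP F 5 := (CharP.charP_iff_prime_eq_zero (by norm_num)).2 (by exact_mod_cast h5)
  let _ := ZMod.algebra F 5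
  obtain ⟨w, hw⟩ := isSquare_of hF h2 (x := 2) (Or.inl (map_ofNat _ 2))
  let ψ : K25 →+* F := (QuadraticAlgebra.lift ⟨w, by
    rw [← hw, zero_smul, add_zero, Algebra.smul_def, map_ofNat, mul_one]⟩ : K25 →ₐ[ZMod 5] F)
  let g : Fin 7 → SU 3 F 5 := fun i => ⟨⟨ψ.mapMatrix (xs i), by
    rw [← RingHom.map_det, xs_det, map_one]⟩, (HForm.mem_SU_iff 3 (τ := frobq hF) (fun _ => rfl)
      _).2 (by
    have := congrArg ψ.mapMatrix (xs_unit i)
    rw [map_mul, map_one] at this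
    refine Eq.trans (congrArg₂ (· * ·) rfl ?_) this
    ext a b
    simp [frobq_apply])⟩
  have hg : ∀ i, ((g i).1 : Matrix (Fin 3) (Fin 3) F) = ψ.mapMatrix (xs i) := fun _ => rfl
  obtain ⟨H, hH⟩ := exists_card_2520 (fun i => (g i : PSU 3 F 5))
    (fun i _ => by
      rw [← QuotientGroup.mk_pow, show g i ^ 3 = 1 from Subtype.ext (Subtype.ext (by
        rw [pow_three']
        change ψ.mapMatrix (xs i) * ψ.mapMatrix (xs i) * ψ.mapMatrix (xs i) = 1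
        rw [← map_mul, ← map_mul, xs_cube, map_one])), QuotientGroup.mk_one])
    (fun i hi j hj hij => by
      rw [← QuotientGroup.mk_mul, ← QuotientGroup.mk_pow, QuotientGroup.eq_one_iff,
        HForm.su_mem_center_iff hF le_rfl]
      refine ⟨ψ ((xs i * xs j * (xs i * xs j)) 0 0), ?_⟩
      rw [pow_two]
      change ψ.mapMatrix (xs i) * ψ.mapMatrix (xs j) * (ψ.mapMatrix (xs i) * ψ.mapMatrix (xs j)) = _
      rw [← map_mul, ← map_mul, xs_sq i hi j hj hij]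
      ext a b
      simp [one_apply, apply_ite ψ])
    (by
      rw [Ne, QuotientGroup.eq_one_iff, HForm.su_mem_center_iff hF le_rfl]
      rintro ⟨c, hc⟩
      have h1 := congrFun (congrFun hc 0) 2
      rw [hg, RingHom.mapMatrix_apply, map_apply, show xs 2 0 2 = 1 by decide, map_one] at h1
      simp at h1)
  refine ⟨H, ?_⟩
  have : Fact (Nat.Prime 3) := ⟨by norm_num⟩
  obtain ⟨k, hk⟩ := (IsPGroup.iff_card (p := 3) (G := center (SU 3 F 5))).1 fun z => ⟨1, by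
      obtain ⟨c, hc⟩ := (HForm.su_mem_center_iff hF le_rfl z.1).1 z.2
      have h1 := z.1.1.2
      rw [show z.1.1.1 = c • 1 from hc, det_smul, det_one, mul_one, Fintype.card_fin] at h1
      refine Subtype.ext (Subtype.ext (Subtype.ext ?_))
      change z.1.1.1 ^ 3 ^ 1 = 1
      rw [show z.1.1.1 = c • 1 from hc, pow_one, smul_pow, h1, one_pow, one_smul]⟩
  have hk0 : k ≠ 0 := by
    rintro rfl
    have h1 : g 1 ∈ center (SU 3 F 5) := (HForm.su_mem_center_iff hF le_rfl _).2 ⟨ψ ⟨2, 2⟩, by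
      rw [hg]; ext a b; simp [xs, one_apply, apply_ite ψ]⟩
    rw [pow_zero, card_eq_one] at hk
    rw [hk, mem_bot] at h1
    have h3 := congrFun (congrFun (hg 1) 0) 0
    rw [h1, RingHom.mapMatrix_apply, map_apply] at h3
    have h4 := congrArg ψ (show (xs 1 0 0 - 1) * (xs 1 0 0 + 2) = 2 by decide)
    rw [map_mul, map_sub, ← h3, map_one, map_ofNat] at h4
    exact h2 (by simpa using h4.symm)
  have h1 := card_EG (uStd_nd hF 3) (by simp)
  rw [← Nat.card_congr (suEquiv hF 3).toEquiv, card_eq_card_quotient_mul_card_subgroup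
    (center (SU 3 F 5)), ← H.index_mul_card, hH, hk] at h1
  obtain ⟨k, rfl⟩ := Nat.exists_eq_succ_of_ne_zero hk0
  rcases k with _ | k
  · omega
  · rw [pow_succ, pow_succ] at h1
    rw [show H.index * 2520 * (3 ^ k * 3 * 3) = H.index * 3 ^ k * 22680 by ring] at h1
    omega

end Cfsg.Agent.U3
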